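import Mathlib

set_option autoImplicit false

namespace CfsgLib.LangGL

open Polynomial

variable {K : Type*} [Field K]

/-- The polynomials giving the coefficients of a fixed vector in terms of the top one. -/
noncomputable def topPoly (q : ℕ) (a : ℕ → K) : ℕ → K[X]
  | 0 => C (a 0) * X ^ q
  | i + 1 => topPoly q a i ^ q + C (a (i + 1)) * X ^ q

theorem X_pow_dvd_topPoly {q : ℕ} (hq : 2 ≤ q) (a : ℕ → K) :
    ∀ i, X ^ q ∣ topPoly q a i
  | 0 => dvd_mul_left _ _
  | i + 1 => dvd_add ((X_pow_dvd_topPoly hq a i).trans (dvd_pow_self _ (by omega))) (dvd_mul_left _ _)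

theorem topPoly_eq_zero {q : ℕ} (hq : 2 ≤ q) (a : ℕ → K) :
    ∀ i, topPoly q a i = 0 → ∀ j ≤ i, a j = 0
  | 0, h, j, hj => by
      obtain rfl := Nat.le_zero.mp hj
      simpa [topPoly, X_pow_eq_monomial] using h
  | i + 1, h, j, hj => by
      have h' : topPoly q a i ^ q + C (a (i + 1)) * X ^ q = 0 := h
      have hcoef : (topPoly q a i ^ q).coeff q = 0 := by
        have hd : X ^ (q * q) ∣ topPoly q a i ^ q := by
          rw [pow_mul]; exact pow_dvd_pow_of_dvd (X_pow_dvd_topPoly hq a i) q
        exact X_pow_dvd_iff.mp hd q (Nat.lt_mul_self_iff.mpr (by omega))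
      have ha : a (i + 1) = 0 := by
        have h2 := congrArg (fun P : K[X] => P.coeff q) h'
        simpa [hcoef] using h2
      rcases hj.eq_or_lt with rfl | hlt
      · exact ha
      · exact topPoly_eq_zero hq a i (eq_zero_of_pow_eq_zero (by simpa [ha] using h')) j
          (Nat.lt_succ_iff.mp hlt)

theorem exists_coeff_fixed [IsAlgClosed K] {q : ℕ} (hq : 2 ≤ q) (a : ℕ → K) (k : ℕ)
    (ha : ∃ i ≤ k, a i ≠ 0) :
    ∃ c : ℕ → K, c k ≠ 0 ∧ c 0 = a 0 * c k ^ q ∧
      ∀ i < k, c (i + 1) = c i ^ q + a (i + 1) * c k ^ q := by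
  obtain ⟨R, hR⟩ := X_pow_dvd_topPoly hq a k
  have hR0 : R ≠ 0 := by
    rintro rfl
    obtain ⟨i, hi, hne⟩ := ha
    exact hne (topPoly_eq_zero hq a k (by rw [hR, mul_zero]) i hi)
  obtain ⟨x, hx⟩ := IsAlgClosed.exists_root (X ^ (q - 1) * R - 1) (by
    have hn : X ^ (q - 1) * R ≠ 0 := mul_ne_zero (pow_ne_zero _ X_ne_zero) hR0
    have hpos : 0 < (X ^ (q - 1) * R).natDegree := by
      rw [natDegree_mul (pow_ne_zero _ X_ne_zero) hR0, natDegree_X_pow]; omega
    have hdeg : (X ^ (q - 1) * R - 1).natDegree = (X ^ (q - 1) * R).natDegree := by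
      apply natDegree_sub_eq_left_of_natDegree_lt; simpa using hpos
    intro h0
    rw [natDegree_eq_of_degree_eq_some (n := 0) h0] at hdeg
    omega)
  have hx' : x ^ (q - 1) * R.eval x = 1 := by
    simpa [IsRoot.def, sub_eq_zero] using hx
  have hfix : (topPoly q a k).eval x = x := by
    rw [hR, eval_mul, eval_pow, eval_X]
    conv_lhs => rw [show q = q - 1 + 1 from by omega, pow_succ, mul_assoc, mul_comm x, ← mul_assoc]
    rw [hx', one_mul]
  refine ⟨fun i => (topPoly q a i).eval x, ?_, ?_, fun i _ => ?_⟩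
  · simp only [hfix]
    rintro rfl
    rw [zero_pow (by omega), zero_mul] at hx'
    exact zero_ne_one hx'
  · simp only [hfix]; simp [topPoly]
  · simp only [hfix]; simp [topPoly]

variable {V : Type*} [AddCommGroup V] [Module K V] {σ : K →+* K}

/-- A vector space over an algebraically closed field is spanned by the fixed vectors of an
injective semilinear map whose twist is a `q`-th power map. -/
theorem span_fixed_eq_top [IsAlgClosed K] [FiniteDimensional K V] {q : ℕ} (hq : 2 ≤ q)
    (hσ : ∀ x, σ x = x ^ q) (φ : V →ₛₗ[σ] V) (hφ : Function.Injective φ) :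
    Submodule.span K {v | φ v = v} = ⊤ := by
  classical
  set W := Submodule.span K {v | φ v = v} with hW
  -- W is the image of itself
  have himg : ∀ w ∈ W, ∀ b : K, ∃ d ∈ W, φ d = b • w := by
    intro w hw
    induction hw using Submodule.span_induction with
    | mem x hx =>
      intro b
      obtain ⟨z, hz⟩ := IsAlgClosed.exists_pow_nat_eq b (show 0 < q by omega)
      exact ⟨z • x, W.smul_mem _ (Submodule.subset_span hx), by
        rw [φ.map_smulₛₗ, hσ, hz, show φ x = x from hx]⟩
    | zero => intro b; exact ⟨0, zero_mem _, by simp⟩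
    | add x y _ _ ihx ihy =>
      intro b
      obtain ⟨d, hd, hd'⟩ := ihx b
      obtain ⟨d', hd1, hd1'⟩ := ihy b
      exact ⟨d + d', add_mem hd hd1, by rw [map_add, hd', hd1', smul_add]⟩
    | smul c x _ ih => intro b; simpa [smul_smul] using ih (b * c)
  -- φ - 1 is onto on W
  have hsub : ∀ w ∈ W, ∀ b : K, ∃ d ∈ W, φ d - d = b • w := by
    intro w hw
    induction hw using Submodule.span_induction with
    | mem x hx =>
      intro b
      obtain ⟨z, hz⟩ := IsAlgClosed.exists_root (X ^ q - X - C b) (by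
        have h1 : (X ^ q - X - C b : K[X]).natDegree = q := by
          compute_degree!
          all_goals first | omega | simp [show ¬ (1 = q) by omega, show ¬ q = 0 by omega]
        intro h0
        rw [natDegree_eq_of_degree_eq_some (n := 0) h0] at h1
        omega)
      have hz' : z ^ q - z = b := by simpa [IsRoot.def, sub_eq_zero] using hz
      exact ⟨z • x, W.smul_mem _ (Submodule.subset_span hx), by
        rw [φ.map_smulₛₗ, hσ, show φ x = x from hx, ← sub_smul, hz']⟩
    | zero => intro b; exact ⟨0, zero_mem _, by simp⟩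
    | add x y _ _ ihx ihy =>
      intro b
      obtain ⟨d, hd, hd'⟩ := ihx b
      obtain ⟨d', hd1, hd1'⟩ := ihy b
      exact ⟨d + d', add_mem hd hd1, by rw [map_add, smul_add, ← hd', ← hd1']; abel⟩
    | smul c x _ ih => intro b; simpa [smul_smul] using ih (b * c)
  by_contra hne
  obtain ⟨v, -, hv⟩ := SetLike.exists_of_lt (lt_top_iff_ne_top.mpr hne)
  have hiter : ∀ n, (φ^[n]) v ∉ W := by
    intro n
    induction n with
    | zero => exact hv
    | succ n ih =>
      intro hmem
      obtain ⟨d, hd, hd'⟩ := himg _ hmem 1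
      rw [one_smul, Function.iterate_succ_apply'] at hd'
      exact ih (hφ hd' ▸ hd)
  obtain ⟨S, hS0, hSsucc⟩ : ∃ S : ℕ → Submodule K V, S 0 = W ∧
      ∀ n, S (n + 1) = S n ⊔ Submodule.span K {(φ^[n]) v} :=
    ⟨fun n => Nat.rec W (fun i acc => acc ⊔ Submodule.span K {(φ^[i]) v}) n, rfl, fun _ => rfl⟩
  have hmono : Monotone S := monotone_nat_of_le_succ fun n => (hSsucc n).symm ▸ le_sup_left
  have hmemS : ∀ n, ∀ x ∈ S n, ∃ a : ℕ → K,
      x - ∑ i ∈ Finset.range n, a i • (φ^[i]) v ∈ W := by
    intro n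
    induction n with
    | zero => intro x hx; exact ⟨0, by simpa [hS0] using hx⟩
    | succ n ih =>
      intro x hx
      rw [hSsucc, Submodule.mem_sup] at hx
      obtain ⟨y, hy, z, hz, rfl⟩ := hx
      obtain ⟨b, rfl⟩ := Submodule.mem_span_singleton.mp hz
      obtain ⟨a, ha⟩ := ih y hy
      refine ⟨Function.update a n b, ?_⟩
      rw [Finset.sum_range_succ, Function.update_self, Finset.sum_congr rfl fun i hi => by
        rw [Function.update_of_ne (Finset.mem_range.mp hi).ne]]
      simpa [add_sub_add_right_eq_sub] using ha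
  have hexists : ∃ n, (φ^[n]) v ∈ S n := by
    by_contra hno
    have hnot : ∀ n, (φ^[n]) v ∉ S n := fun n hn => hno ⟨n, hn⟩
    have hrank : ∀ n : ℕ, n ≤ Module.finrank K ↥(S n) := by
      intro n
      induction n with
      | zero => exact Nat.zero_le _
      | succ n ih =>
        have hlt : S n < S (n + 1) := by
          rw [hSsucc]
          exact left_lt_sup.mpr fun hle => hnot n (hle (Submodule.mem_span_singleton_self _))
        exact lt_of_le_of_lt ih (Submodule.finrank_lt_finrank_of_lt hlt)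
    have := (hrank (Module.finrank K V + 1)).trans (Submodule.finrank_le _)
    omega
  obtain ⟨hk, hmin⟩ : (φ^[Nat.find hexists]) v ∈ S (Nat.find hexists) ∧
      ∀ m < Nat.find hexists, (φ^[m]) v ∉ S m :=
    ⟨Nat.find_spec hexists, fun m hm => Nat.find_min hexists hm⟩
  obtain ⟨k, hkeq⟩ : ∃ k, Nat.find hexists = k + 1 := by
    refine Nat.exists_eq_succ_of_ne_zero fun h0 => ?_
    rw [h0, hS0] at hk
    exact hiter 0 hk
  rw [hkeq] at hk hmin
  obtain ⟨a, ha⟩ := hmemS (k + 1) _ hk
  have hane : ∃ i ≤ k, a i ≠ 0 := by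
    by_contra hno
    have hz : ∑ i ∈ Finset.range (k + 1), a i • (φ^[i]) v = 0 := Finset.sum_eq_zero fun i hi => by
      rw [show a i = 0 from by_contra fun hne => hno ⟨i, Nat.lt_succ_iff.mp (Finset.mem_range.mp hi), hne⟩,
        zero_smul]
    rw [hz, sub_zero] at ha
    exact hiter _ ha
  obtain ⟨c, hck, hc0, hcs⟩ := exists_coeff_fixed hq a k hane
  set u := ∑ i ∈ Finset.range (k + 1), c i • (φ^[i]) v with hu
  have hφu : φ u - u ∈ W := by
    have h1 : φ u = (∑ i ∈ Finset.range k, c i ^ q • (φ^[i + 1]) v) + c k ^ q • (φ^[k + 1]) v := by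
      simp only [hu, map_sum, φ.map_smulₛₗ, hσ, Finset.sum_range_succ, ← Function.iterate_succ_apply',
        map_add]
    have h2 : u = (∑ i ∈ Finset.range k, c i ^ q • (φ^[i + 1]) v) +
        c k ^ q • ∑ i ∈ Finset.range (k + 1), a i • (φ^[i]) v := by
      rw [hu, Finset.sum_range_succ' (fun i => c i • (φ^[i]) v),
        Finset.sum_range_succ' (fun i => a i • (φ^[i]) v), smul_add, Finset.smul_sum, ← add_assoc,
        ← Finset.sum_add_distrib, hc0, mul_comm (a 0), mul_smul]
      congr 1
      refine Finset.sum_congr rfl fun i hi => ?_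
      rw [hcs i (Finset.mem_range.mp hi), add_smul, smul_smul, mul_comm (c k ^ q)]
    rw [h1]
    nth_rewrite 1 [h2]
    rw [add_sub_add_left_eq_sub, ← smul_sub]
    exact W.smul_mem _ ha
  have huW : u ∉ W := by
    intro huW
    have hlow : ∀ i < k, (φ^[i]) v ∈ S k := by
      intro i hi
      refine hmono (Nat.succ_le_of_lt hi) ?_
      rw [hSsucc]
      exact Submodule.mem_sup_right (Submodule.mem_span_singleton_self _)
    have hWk : W ≤ S k := hS0 ▸ hmono (Nat.zero_le k)
    have hs : ∑ i ∈ Finset.range k, c i • (φ^[i]) v ∈ S k :=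
      sum_mem fun i hi => (S k).smul_mem _ (hlow i (Finset.mem_range.mp hi))
    have h3 := (S k).sub_mem (hWk huW) hs
    rw [hu, Finset.sum_range_succ, add_sub_cancel_left] at h3
    exact hmin k (Nat.lt_succ_self k) (((S k).smul_mem_iff hck).mp h3)
  obtain ⟨d, hd, hd'⟩ := hsub _ hφu 1
  rw [one_smul] at hd'
  have hfixed : φ (u - d) = u - d := by
    rw [map_sub, ← sub_eq_zero]
    linear_combination (norm := abel) (-1 : ℤ) • hd'
  exact huW (by simpa using add_mem (Submodule.subset_span hfixed : u - d ∈ W) hd)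

end CfsgLib.LangGL
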